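import Cfsg.Agent.H6.J4.M.D0

set_option autoImplicit false
set_option maxRecDepth 100000
set_option Elab.async false

namespace Cfsg.H6.J4.M

theorem d5 : Nat.beq (trF (P.img P.d code) [3,4,2,4,3,1,3,4] (code 3)) (code 5) = true := by
  decide +kernel

theorem d6 : Nat.beq (trF (P.img P.d code) [3,4,2,4,3,1,3,4,2] (code 3)) (code 6) = true := by
  decide +kernel

theorem d7 : Nat.beq (trF (P.img P.d code) [1] (code 2)) (code 7) = true := by
  decide +kernel

theorem d8 : Nat.beq (trF (P.img P.d code) [3,3,4,2,4,3,1,3,4,3,4] (code 2)) (code 8) = true := by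
  decide +kernel

theorem d9 : Nat.beq (trF (P.img P.d code) [2] (code 1)) (code 9) = true := by
  decide +kernel

theorem d10 : Nat.beq (trF (P.img P.d code) [3,1,2] (code 1)) (code 10) = true := by
  decide +kernel

theorem d11 : Nat.beq (trF (P.img P.d code) [3,1,3,1,2,1,2] (code 1)) (code 11) = true := by
  decide +kernel

theorem d12 : Nat.beq (trF (P.img P.d code) [2,1,2,1,3,1,2,1,3,1,2,1,3] (code 1)) (code 12) = true := by
  decide +kernel

theorem d13 : Nat.beq (trF (P.img P.d code) [1,2,1,3,1,2,1,3,4,2,1,3,1,2,1,3,1] (code 2)) (code 13) = true := by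
  decide +kernel

theorem d14 : Nat.beq (trF (P.img P.d code) [1,2,1,2,1,2,2,1,2,1,2,1,2,2,1,2,1,2,1,2,4,3,3,1,3,1,3,1,3] (code 2)) (code 14) = true := by
  decide +kernel

theorem d15 : Nat.beq (trF (P.img P.d code) [1,3,1,3,1,3,3,1,3,1,3,1,4,1,2] (code 14)) (code 15) = true := by
  decide +kernel


end Cfsg.H6.J4.M
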