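import Cfsg.Agent.H6.J4.M.D0

set_option autoImplicit false
set_option maxRecDepth 100000
set_option Elab.async false

namespace Cfsg.H6.J4.M

theorem d16 : Nat.beq (trF (P.img P.d code) [1,2,1,2,2,1,2,1,2,1,2,1,2,1,2,1,2,2] (code 15)) (code 16) = true := by
  decide +kernel

theorem d17 : Nat.beq (trF (P.img P.d code) [3,4,3] (code 1)) (code 17) = true := by
  decide +kernel

theorem d18 : Nat.beq (trF (P.img P.d code) [17,17,17,17,17,17] (code 17)) (code 18) = true := by
  decide +kernel

theorem d19 : Nat.beq (trF (P.img P.d code) [3] (code 4)) (code 19) = true := by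
  decide +kernel

theorem d20 : Nat.beq (trF (P.img P.d code) [19,19,19,19,19] (code 19)) (code 20) = true := by
  decide +kernel

theorem d21 : Nat.beq (trF (P.img P.d code) [3] (code 1)) (code 21) = true := by
  decide +kernel

theorem d22 : Nat.beq (trF (P.img P.d code) [2,4,1,3,4,3,4,2] (code 1)) (code 22) = true := by
  decide +kernel

theorem d23 : Nat.beq (trF (P.img P.d code) [2,4,2,4,2,1,3,1] (code 4)) (code 23) = true := by
  decide +kernel

theorem d24 : Nat.beq (trF (P.img P.d code) [1,4] (code 3)) (code 24) = true := by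
  decide +kernel

theorem d25 : Nat.beq (trF (P.img P.d code) [2,4,2,1,3] (code 1)) (code 25) = true := by
  decide +kernel

theorem d26 : Nat.beq (trF (P.img P.d code) [25,25] (code 25)) (code 26) = true := by
  decide +kernel

theorem d27 : Nat.beq (trF (P.img P.d code) [1,1,4,1,2,1,1,3,4,1,3,4,2,4,2,1,4,3,4,1,3,4,2,4,1,3,3,4,4] (code 4)) (code 27) = true := by
  decide +kernel


end Cfsg.H6.J4.M
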