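import Cfsg.Agent.H6.J4.M.D0

set_option autoImplicit false
set_option maxRecDepth 100000
set_option Elab.async false

namespace Cfsg.H6.J4.M

theorem sp : allR (fun i => Nat.beq i 0 || (Nat.blt (nthN [0,0,1,1,2,2,3,3,4,4,4,5,5,6,6,6,7,7,8,8,9,9,10,11,11,12,12,13,13,14,15,15,16,17,17,18,18,19,20,20,20,21,21,22,23,23,23,24,24,25,25,25,26,26,28,28,30,30,30,31,31,32,32,33,33,33,34,34,35,35,35,36,36,37,37,38,38,39,39,40,40,41,41,42,42,43,43,44,44,45,45,46,46,47,47,48,48,49,49,51,51,52,53,53,54,54,54,55,55,56,56,61] i) i &&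
    inR 5 [nthN [0,4,2,3,4,1,4,1,1,2,3,2,3,1,2,3,2,3,2,3,4,1,1,4,1,4,1,2,3,1,4,1,4,4,1,4,1,1,1,2,3,2,3,3,1,2,3,2,3,1,2,3,2,3,4,1,1,2,3,2,3,2,3,1,2,3,2,3,1,2,3,2,3,2,3,2,3,4,1,4,1,4,1,4,1,4,1,2,3,4,1,4,1,4,1,4,1,2,3,4,1,1,4,1,1,2,3,2,3,2,3,4] i] && P.rowEq (code (nthN [0,4,2,3,4,1,4,1,1,2,3,2,3,1,2,3,2,3,2,3,4,1,1,4,1,4,1,2,3,1,4,1,4,4,1,4,1,1,1,2,3,2,3,3,1,2,3,2,3,1,2,3,2,3,4,1,1,2,3,2,3,2,3,1,2,3,2,3,1,2,3,2,3,2,3,2,3,4,1,4,1,4,1,4,1,4,1,2,3,4,1,4,1,4,1,4,1,2,3,4,1,1,4,1,1,2,3,2,3,2,3,4] i)) (nthN [0,0,1,1,2,2,3,3,4,4,4,5,5,6,6,6,7,7,8,8,9,9,10,11,11,12,12,13,13,14,15,15,16,17,17,18,18,19,20,20,20,21,21,22,23,23,23,24,24,25,25,25,26,26,28,28,30,30,30,31,31,32,32,33,33,33,34,34,35,35,35,36,36,37,37,38,38,39,39,40,40,41,41,42,42,43,43,44,44,45,45,46,46,47,47,48,48,49,49,51,51,52,53,53,54,54,54,55,55,56,56,61]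 i) i)) 0 P.d = true := by
  decide +kernel


end Cfsg.H6.J4.M
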