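import Cfsg.Agent.H6.J4.M.D0

set_option autoImplicit false
set_option maxRecDepth 100000
set_option Elab.async false

namespace Cfsg.H6.J4.M

theorem d28 : Nat.beq (trF (P.img P.d code) [1,3,3,3,1,3,4,4,1,4,2,4,4,4,1,1,3,4,4,4,3,4,4,2,4,4,2,1,4] (code 27)) (code 28) = true := by
  decide +kernel

theorem d29 : Nat.beq (trF (P.img P.d code) [3,3,3,1,4,3,3,4,3,3,1,4,3,1,1,1,2,4,2,4,4,2,4,1,4,2,1,3,1] (code 28)) (code 29) = true := by
  decide +kernel

theorem d30 : Nat.beq (trF (P.img P.d code) [4,4,1,4,3,4,1,1,1,1,4,4,4,4,1,1,2,4,1,1,2,1,4,2,4,1,3,4,3] (code 29)) (code 30) = true := by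
  decide +kernel

theorem d31 : Nat.beq (trF (P.img P.d code) [4,2,1,4,2,1,1,3,1,4,1,1,4] (code 30)) (code 31) = true := by
  decide +kernel

theorem d32 : Nat.beq (trF (P.img P.d code) [32] (code 31)) P.one = true := by
  decide +kernel

theorem d33 : Nat.beq (trF (P.img P.d code) [33] (code 26)) P.one = true := by
  decide +kernel

theorem d34 : Nat.beq (trF (P.img P.d code) [1,4,3,4,2,4,1,4,4,2,2,4,2,4,1,3,3,3,4,1,4,4,3,1,2,1,2,1,4] (code 1)) (code 34) = true := by
  decide +kernel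


end Cfsg.H6.J4.M
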