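import Cfsg.Agent.H6.J4.M.D0

set_option autoImplicit false
set_option maxRecDepth 100000
set_option Elab.async false

namespace Cfsg.H6.J4.M

theorem d35 : Nat.beq (trF (P.img P.d code) [1,2,1,4,2,2,1,4,2,4,1,2,4,2,1,4,1,2,4,2,4,2,1,4,4,3,4,2,2] (code 34)) (code 35) = true := by
  decide +kernel

theorem d36 : Nat.beq (trF (P.img P.d code) [2,1,3,1,1,4,2,2,4,1,1,1,2,2,4,3,4,3,4,3,4,2,4,4,3,4,4,2,1] (code 35)) (code 36) = true := by
  decide +kernel

theorem d37 : Nat.beq (trF (P.img P.d code) [2,4,3,4,4,1,2,4,2,1,1,2,1,4,2,4,2,1,1,4,1,3,4,1,2,1,1,3,1] (code 36)) (code 37) = true := by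
  decide +kernel

theorem d38 : Nat.beq (trF (P.img P.d code) [1,3,1,4,2,1,4,2,1,3,4,4,1,3,1] (code 37)) (code 38) = true := by
  decide +kernel

theorem d39 : Nat.beq (trF (P.img P.d code) [39] (code 38)) P.one = true := by
  decide +kernel

theorem d40 : Nat.beq (trF (P.img P.d code) [33,33,38,33,32,32,26,38,26,31,26,31,33,38,26,32,32,38,38,33,39,26,38,26,39] (code 32)) (code 40) = true := by
  decide +kernel

theorem d41 : Nat.beq (trF (P.img P.d code) [41] (code 40)) P.one = true := by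
  decide +kernel


end Cfsg.H6.J4.M
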