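import Cfsg.Agent.H6.J4.M.D0

set_option autoImplicit false
set_option maxRecDepth 100000
set_option Elab.async false

namespace Cfsg.H6.J4.M

theorem d42 : Nat.beq (trF (P.img P.d code) [39,39,32,26,32,33,31,31,39,32,32,33,33] (code 39)) (code 42) = true := by
  decide +kernel

theorem d43 : Nat.beq (trF (P.img P.d code) [43] (code 42)) P.one = true := by
  decide +kernel

theorem d44 : Nat.beq (trF (P.img P.d code) [26,41,33,43,26,41,42,42,42] (code 26)) (code 44) = true := by
  decide +kernel

theorem d45 : Nat.beq (trF (P.img P.d code) [40,42,41,33,43,43,33,33,33,40,43] (code 43)) (code 45) = true := by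
  decide +kernel

theorem d46 : Nat.beq (trF (P.img P.d code) [1,2,1,2,1,2,1,3,1,2,1,2,1,3,1,3,1,3,1,3] (code 2)) (code 46) = true := by
  decide +kernel

theorem d47 : Nat.beq (trF (P.img P.d code) [1,2] (code 3)) (code 47) = true := by
  decide +kernel

theorem d48 : Nat.beq (trF (P.img P.d code) [48] (code 47)) P.one = true := by
  decide +kernel

theorem d49 : Nat.beq (trF (P.img P.d code) [49] (code 46)) P.one = true := by
  decide +kernel

theorem d50 : Nat.beq (trF (P.img P.d code) [48,1,46,1,49,1,46,46,48,48,46,48,49,47,1,46,47] (code 46)) (code 50) = true := by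
  decide +kernel

theorem d51 : Nat.beq (trF (P.img P.d code) [1,46,46,48,46,1,49,1,49,1,46,46,47,1,1,46,47] (code 1)) (code 51) = true := by
  decide +kernel

theorem d52 : Nat.beq (trF (P.img P.d code) [51] (code 51)) (code 52) = true := by
  decide +kernel

theorem d53 : Nat.beq (trF (P.img P.d code) [1,2,1,3,1,3,1,2,1,2,1,2] (code 2)) (code 53) = true := by
  decide +kernel

theorem d54 : Nat.beq (trF (P.img P.d code) [54] (code 53)) P.one = true := by
  decide +kernel


end Cfsg.H6.J4.M
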