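import Cfsg.Agent.H6.J4.M.D0

set_option autoImplicit false
set_option maxRecDepth 100000
set_option Elab.async false

namespace Cfsg.H6.J4.M

theorem d55 : Nat.beq (trF (P.img P.d code) [1,53,53,1,54] (code 53)) (code 55) = true := by
  decide +kernel

theorem d56 : Nat.beq (trF (P.img P.d code) [53,1,53,53,1,53,53] (code 53)) (code 56) = true := by
  decide +kernel

theorem d57 : Nat.beq (trF (P.img P.d code) [1,53,1,54,1,53,1,54,1,53] (code 54)) (code 57) = true := by
  decide +kernel

theorem d58 : Nat.beq (trF (P.img P.d code) [1,53,53,1,53,53,1,53,53,1,53] (code 54)) (code 58) = true := by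
  decide +kernel

theorem d59 : Nat.beq (trF (P.img P.d code) [46,4,46,4,46] (code 4)) (code 59) = true := by
  decide +kernel

theorem d60 : Nat.beq (trF (P.img P.d code) [59,2] (code 3)) (code 60) = true := by
  decide +kernel

theorem r0 : Nat.beq (trF (P.img P.d code) [2,2] (code 2)) P.one = true := by
  decide +kernel

theorem r1 : Nat.beq (trF (P.img P.d code) [9,9,9,9,9,9,9,9,9,9,9,9,9,9,9,9,9,9,9,9,9,9] (code 9)) P.one = true := by
  decide +kernel

theorem r2 : Nat.beq (trF (P.img P.d code) [10,10,10,10,10,10,10,10,10,10,10] (code 10)) P.one = true := by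
  decide +kernel

theorem r3 : Nat.beq (trF (P.img P.d code) [11,11,11,11] (code 11)) P.one = true := by
  decide +kernel

theorem r4 : Nat.beq (trF (P.img P.d code) [12,12,12] (code 12)) P.one = true := by
  decide +kernel


end Cfsg.H6.J4.M
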