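import Cfsg.Agent.H6.J4.M.D0

set_option autoImplicit false
set_option maxRecDepth 100000
set_option Elab.async false

namespace Cfsg.H6.J4.M

theorem r5 : Nat.beq (trF (P.img P.d code) [2,1,2,1,3,1,2,1,2,1,3,1,2,1,2,1,3,1,2,1,3,1,3,1,2,1,3,1,3,1,2,1,3,1,3] (code 1)) P.one = true := by
  decide +kernel

theorem r6 : Nat.beq (trF (P.img P.d code) [3,1,3,1,3,1,2,1,2,1,3,1,3,4,2,1,2,1,3,1,3,1,2,1,2,1,2] (code 4)) P.one = true := by
  decide +kernel

theorem r7 : Nat.beq (trF (P.img P.d code) [1,4,1] (code 4)) P.one = true := by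
  decide +kernel

theorem r8 : Nat.beq (trF (P.img P.d code) [13,13] (code 13)) P.one = true := by
  decide +kernel

theorem r9 : Nat.beq (trF (P.img P.d code) [16] (code 16)) P.one = true := by
  decide +kernel

theorem r10 : Nat.beq (trF (P.img P.d code) [1] (code 1)) P.one = true := by
  decide +kernel

theorem r11 : Nat.beq (trF (P.img P.d code) [3] (code 2)) P.one = true := by
  decide +kernel

theorem r12 : Nat.beq (trF (P.img P.d code) [4] (code 4)) P.one = true := by
  decide +kernel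

theorem px : Nat.beq (trF (P.img P.d code) [5,5,5,5,5,5,5,5,5,5,5,5,5,5,5,5,5,5,5,5,5,5,5,5,5,5,5,5,5,5,5,5,5,5,5,5,5,5,5,5,5,5] (code 5)) P.one = true := by
  decide +kernel


end Cfsg.H6.J4.M
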