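import Cfsg.Agent.H6.J4.M.D0

set_option autoImplicit false
set_option maxRecDepth 100000
set_option Elab.async false

namespace Cfsg.H6.J4.M

theorem pa0 : Nat.beq (trF (P.img P.d code) [6,6,6,6,6,6,6,6,6,6,6,6,6,6,6,6,6,6,6,6,6,6,6,6,6,6,6,6,6,6,6,6,6,6] (code 6)) P.one = true := by
  decide +kernel

theorem pb0 : Nat.beq (trF (P.img P.d code) [2,2] (code 2)) P.one = true := by
  decide +kernel

theorem pa1 : Nat.beq (trF (P.img P.d code) [7,7,7,7,7,7,7,7,7,7,7,7,7,7,7,7,7,7,7,7,7,7] (code 7)) P.one = true := by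
  decide +kernel

theorem pb1 : Nat.beq (trF (P.img P.d code) [1] (code 1)) P.one = true := by
  decide +kernel

theorem pa2 : Nat.beq (trF (P.img P.d code) [8,8,8,8,8,8,8,8,8,8,8,8,8,8,8,8,8,8,8,8,8,8,8,8,8,8,8,8,8,8] (code 8)) P.one = true := by
  decide +kernel

theorem pb2 : Nat.beq (trF (P.img P.d code) [4] (code 4)) P.one = true := by
  decide +kernel

theorem l5_0 : allR (P.lab1 1 code (nthN [0,18]) g5 tab5 5 2) 0 5 = true := by
  decide +kernel

theorem v5_0 : dvChk tab5 5 2 0 [[1]] [] [0,1,2,3,4] (unp 4 (nat_lit 0x300000001000000020000000000)) = true := by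
  decide +kernel


theorem l7_0 : allR (P.lab1 1 code (nthN [0,20]) g7 tab7 7 2) 0 7 = true := by
  decide +kernel

theorem v7_0 : dvChk tab7 7 2 2 [[1]] [] [0,1,2,3,4,5,6] (unp 6 (nat_lit 0x3000000010000000500000006000000000000000200)) = true := by
  decide +kernel


theorem l23_0 : allR (P.lab1 1 code (nthN [0,21]) g23 tab23 23 2) 0 23 = true := by
  decide +kernel

theorem v23_0 : dvChk tab23 23 2 8 [[1]] [] [0,1,2,3,4,5,6,7,8,9,10,11,12,13,14,15,16,17,18,19,20,21,22] (unp 22 (nat_lit 0x1400000004000000120000000f0000001100000005000000150000000e000000030000000d0000000600000016000000100000001300000007000000000000000c000000010000000b00000002000000090000000800)) = true := by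
  decide +kernel


theorem l29_0 : allR (P.lab1 1 code (nthN [0,22]) g29 tab29 29 2) 0 29 = true := by
  decide +kernel

theorem v29_0 : dvChk tab29 29 2 11 [[1]] [] [0,1,2,3,4,5,6,7,8,9,10,11,12,13,14,15,16,17,18,19,20,21,22,23,24,25,26,27,28] (unp 28 (nat_lit 0x1300000016000000020000000a000000010000000c000000140000001b00000015000000180000001a00000010000000040000001900000005000000000000000f000000110000001c00000003000000120000000d00000017000000090000000e00000007000000060000000b00)) = true := by
  decide +kernel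


theorem l31_0 : allR (P.lab1 1 code (nthN [0,23]) g31 tab31 31 2) 0 31 = true := by
  decide +kernel


end Cfsg.H6.J4.M
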