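import Cfsg.Agent.H6.J4.M.D0

set_option autoImplicit false
set_option maxRecDepth 100000
set_option Elab.async false

namespace Cfsg.H6.J4.M

theorem l2_6 : allR (P.lab1 1 code (nthN [0,55,56,57,58,60]) g2 tab2 1644 6) 480 80 = true := by
  decide +kernel

theorem l2_7 : allR (P.lab1 1 code (nthN [0,55,56,57,58,60]) g2 tab2 1644 6) 560 80 = true := by
  decide +kernel

theorem l2_8 : allR (P.lab1 1 code (nthN [0,55,56,57,58,60]) g2 tab2 1644 6) 640 80 = true := by
  decide +kernel

theorem l2_9 : allR (P.lab1 1 code (nthN [0,55,56,57,58,60]) g2 tab2 1644 6) 720 80 = true := by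
  decide +kernel

theorem l2_10 : allR (P.lab1 1 code (nthN [0,55,56,57,58,60]) g2 tab2 1644 6) 800 80 = true := by
  decide +kernel

theorem l2_11 : allR (P.lab1 1 code (nthN [0,55,56,57,58,60]) g2 tab2 1644 6) 880 80 = true := by
  decide +kernel

theorem l2_12 : allR (P.lab1 1 code (nthN [0,55,56,57,58,60]) g2 tab2 1644 6) 960 80 = true := by
  decide +kernel

theorem l2_13 : allR (P.lab1 1 code (nthN [0,55,56,57,58,60]) g2 tab2 1644 6) 1040 80 = true := by
  decide +kernel

theorem l2_14 : allR (P.lab1 1 code (nthN [0,55,56,57,58,60]) g2 tab2 1644 6) 1120 80 = true := by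
  decide +kernel

theorem l2_15 : allR (P.lab1 1 code (nthN [0,55,56,57,58,60]) g2 tab2 1644 6) 1200 80 = true := by
  decide +kernel


end Cfsg.H6.J4.M
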